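import Cfsg.Agent.Co0Five.Mat
import Cfsg.Agent.Co0Five.Data
import Cfsg.Agent.CosetEnum.Sound
import Cfsg.Agent.SporJ2.HundredData

/-! The checks on the tables. -/

set_option autoImplicit false
set_option maxRecDepth 100000

noncomputable section

namespace CfsgLib.Co0Five

open Cfsg CfsgLib.Leech CfsgLib.CosetEnum CfsgLib.SporJ2
open scoped BigOperators

/-- The rows of the lifts. -/
def liftRows (x : ℕ) : List (List ℤ) := [rows0, rows1, rows2, rows3, rows4].getD x rows0

/-- Decoding. -/
def vdec (c : ℕ) : List ℤ := (List.range 24).map fun i => ((c / 16 ^ i % 16 : ℕ) : ℤ) - 4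

/-- A decoded vector. -/
def vec (c : ℕ) : GolayPt → ℤ := toVec (vdec c)

/-- Code of an image of the first vector. -/
def vCode (i : ℕ) : ℕ := orbitV.getD i 0

/-- Code of an image of a point. -/
def pCode (i k : ℕ) : ℕ := ([orbitP0, orbitP1, orbitP2, orbitP3, orbitP4].getD i []).getD k 0

/-- Sum of lists. -/
def addList (l m : List ℤ) : List ℤ := (List.range 24).map fun i => l.getD i 0 + m.getD i 0

/-- Difference of lists. -/
def subList (l m : List ℤ) : List ℤ := (List.range 24).map fun i => l.getD i 0 - m.getD i 0

/-- The base data are right. -/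
def mclOK : Bool :=
  let v := vdec (vCode 0)
  let u := addList v (vdec (vCode 1))
  (dot v v == 32) && (dot u u == 48) && (dot u v == 24) &&
    allBelow (fun k =>
      let x := vdec (pCode 0 k)
      (dot x x == 32) && (dot (subList u x) (subList u x) == 32) && (dot v x == 16)) 275

/-- Their images. -/
def sixCode (k i : ℕ) : ℕ :=
  if k = 0 then vCode i else pCode i (baseIdx.getD (k - 1) 0 % 275)

/-- The lifts commute with the element of order 5. -/
def commOK : Bool := allBelow (fun x => allBelow (fun i =>
  let l := ofVec (fun p => if p = idxPt i then 8 else 0)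
  stepList rowsA (stepList (liftRows x) l) == stepList (liftRows x) (stepList rowsA l)) 24) 5

/-- A chain of images. -/
def chainOK : List ℕ → List ℕ → Bool
  | [], [_] => true
  | x :: xs, c :: c' :: cs =>
    x.blt 5 && (stepList (liftRows x) (vdec c) == vdec c') && chainOK xs (c' :: cs)
  | _, _ => false

/-- Opposite list. -/
def negList (l : List ℤ) : List ℤ := l.map fun a => -a

/-- The traces of one vector are right. -/
def relStep (k : ℕ) : Bool := (Hundred.rels.length == relTraces.length) && allBelow (fun r =>
  let e := relSign.getD r (false, 0)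
  let cs := (relTraces.getD r []).getD k []
  (cs.headD 0 == sixCode k 0) && chainOK (Hundred.rels.getD r []).reverse cs &&
    (vdec (cs.getLastD 0) ==
      bif e.1 then negList (vdec (sixCode k (e.2 % 5))) else vdec (sixCode k (e.2 % 5))))
  Hundred.rels.length

/-- Invariants of a point. -/
def sigOf (y : ℕ) : List ℤ :=
  let x := vdec (pCode 0 y)
  (List.range 5).map (fun i => dot x (vdec (vCode i))) ++
    [dot x (vdec (pCode 1 y)), dot x (vdec (pCode 2 y))]

/-- The lists of partial images. -/
def levels : List (List (List ℕ)) := [level0, level1, level2, level3, level4, level5]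

/-- An invariant of a pair. -/
def relAt (y : ℕ) (f : ℕ → ℕ) (e : ℕ × ℕ × ℤ) : Bool :=
  dot (vdec (pCode 0 y)) (vdec (pCode e.2.1 (f e.1))) == e.2.2

/-- The enumeration is complete. -/
def enumStep (k : ℕ) : Bool :=
  let b := baseIdx.getD k 0 % 275
  (sigOf b == sigNeed.getD k []) &&
    allBelow (fun y => !(sigOf y == sigNeed.getD k []) || (candList.getD k []).contains y) 275 &&
    ((relNeed.getD k []).all fun e => e.1.blt k && e.2.1.blt 5 &&
      relAt b (fun m => baseIdx.getD m 0 % 275) e) &&
    (levels.getD k []).all fun s => (candList.getD k []).all fun y =>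
      !((relNeed.getD k []).all (relAt y fun m => s.getD m 0)) ||
        (levels.getD (k + 1) []).contains (s ++ [y])

/-- One step of the orbit tables. -/
def orbitStep (i : ℕ) : Bool :=
  (stepList rowsA (vdec (vCode i)) == vdec (vCode ((i + 1) % 5))) &&
    allBelow (fun k => stepList rowsA (vdec (pCode i k)) == vdec (pCode ((i + 1) % 5) k)) 275

end CfsgLib.Co0Five

end
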