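import Cfsg.Agent.Co0Five.Check.Defs

/-! A kernel check. -/

set_option autoImplicit false
set_option maxRecDepth 100000

noncomputable section

namespace CfsgLib.Co0Five

open Cfsg CfsgLib.Leech CfsgLib.CosetEnum CfsgLib.SporJ2
open scoped BigOperators

theorem orbit_step4 : orbitStep 4 = true := by decide +kernel

theorem comm_ok : commOK = true := by decide +kernel

theorem nodup_ok : ((List.range 275).map (pCode 0)).Nodup ∧
    allBelow (fun k => pCode 0 k ==
      ((List.range 24).map fun i => (((vdec (pCode 0 k)).getD i 0 + 4).toNat) * 16 ^ i).sum) 275 = true := by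
  decide +kernel

end CfsgLib.Co0Five

end
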