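import Cfsg.Agent.Co0Five.Check.Defs

/-! A kernel check. -/

set_option autoImplicit false
set_option maxRecDepth 100000

noncomputable section

namespace CfsgLib.Co0Five

open Cfsg CfsgLib.Leech CfsgLib.CosetEnum CfsgLib.SporJ2
open scoped BigOperators

theorem check_P_low : ∀ k : Fin 140, CheckLeech (vec (pCode 0 (k : ℕ))) := by decide +kernel

end CfsgLib.Co0Five

end
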