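import Cfsg.Agent.Co0Five.Check.Defs

/-! A kernel check. -/

set_option autoImplicit false
set_option maxRecDepth 100000

noncomputable section

namespace CfsgLib.Co0Five

open Cfsg CfsgLib.Leech CfsgLib.CosetEnum CfsgLib.SporJ2
open scoped BigOperators

theorem span_ok : ∀ i p : GolayPt, (if p = i then (8 : ℤ) else 0) =
    ∑ q : Fin 30, (spanCoef.getD (ptIdx i) []).getD q 0 * vec (sixCode (q / 5 : ℕ) (q % 5 : ℕ)) p := by
  decide +kernel

theorem mcl_ok : mclOK = true := by decide +kernel

end CfsgLib.Co0Five

end
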